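import Mathlib
import Cfsg.Agent.Lib.Char.FrobeniusKernel
import Cfsg.Agent.Lib.Frobenius.Basic
import Cfsg.Agent.Lib.Frobenius.Invariant
import Cfsg.Agent.Lib.Frobenius.Center

/-!
# Lifting fixed point free modular representations to characteristic zero

`fpf_lift`: if `r` does not divide `|H|`, every representation of `H` over `ZMod r` yields an
irreducible representation over an algebraically closed field of characteristic zero in which
elements without eigenvalue one in the modular representation have no fixed vectors.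

The proof works with the central idempotents of the group algebra over the integers of the field:
the block component of a norm element lies in the maximal ideal when the reduction kills it, and
then vanishes, being idempotent up to a unit.
-/

set_option autoImplicit false
set_option linter.style.haveILetI false

namespace Cfsg.Agent.Lib.Frobenius.FpfLift

open MonoidAlgebra

section Trace

variable {K : Type*} [Field K] {H : Type*} [Group H] [Fintype H]

/-- The standard basis of the group algebra. -/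
noncomputable def gBasis (K H : Type*) [Field K] [Group H] :
    Module.Basis H K (MonoidAlgebra K H) :=
  (Finsupp.basisSingleOne (R := K) (ι := H)).map (coeffLinearEquiv K).symm

theorem gBasis_apply (g : H) : gBasis K H g = single g 1 := by
  simp [gBasis]

theorem gBasis_repr (z : MonoidAlgebra K H) (g : H) : (gBasis K H).repr z g = z.coeff g := by
  simp [gBasis]

/-- The regular trace on the group algebra. -/
theorem trace_mulLeft_group (z : MonoidAlgebra K H) :
    LinearMap.trace K (MonoidAlgebra K H) (LinearMap.mulLeft K z) =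
      (Fintype.card H : K) * z.coeff 1 := by
  classical
  rw [LinearMap.trace_eq_matrix_trace K (gBasis K H), Matrix.trace]
  have : ∀ g : H, (Matrix.diag ((LinearMap.toMatrix (gBasis K H) (gBasis K H))
      (LinearMap.mulLeft K z))) g = z.coeff 1 := by
    intro g
    rw [Matrix.diag_apply, LinearMap.toMatrix_apply, gBasis_repr, gBasis_apply,
      LinearMap.mulLeft_apply, coeff_mul_single_apply]
    simp
  rw [Finset.sum_congr rfl (fun g _ => this g)]
  simp

variable {ι : Type*} [Fintype ι] {d : ι → ℕ}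

/-- The regular trace on a product of matrix algebras. -/
theorem trace_mulLeft_pi (w : Π i, Matrix (Fin (d i)) (Fin (d i)) K) :
    LinearMap.trace K (Π i, Matrix (Fin (d i)) (Fin (d i)) K) (LinearMap.mulLeft K w) =
      ∑ i, (d i : K) * Matrix.trace (w i) := by
  classical
  let b : Module.Basis (Σ i, Fin (d i) × Fin (d i)) K (Π i, Matrix (Fin (d i)) (Fin (d i)) K) :=
    Pi.basis fun i => Matrix.stdBasis K (Fin (d i)) (Fin (d i))
  rw [LinearMap.trace_eq_matrix_trace K b, Matrix.trace]
  have hb : ∀ x : (Σ i, Fin (d i) × Fin (d i)),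
      (Matrix.diag ((LinearMap.toMatrix b b) (LinearMap.mulLeft K w))) x =
        w x.1 x.2.1 x.2.1 := by
    rintro ⟨i, a, c⟩
    rw [Matrix.diag_apply, LinearMap.toMatrix_apply]
    have hbx : b ⟨i, a, c⟩ = Pi.single i (Matrix.single a c 1) := by
      simp [b, Pi.basis_apply, Matrix.stdBasis_eq_single]
    rw [hbx, LinearMap.mulLeft_apply]
    have hrepr : ∀ x : (Π i, Matrix (Fin (d i)) (Fin (d i)) K),
        b.repr x ⟨i, a, c⟩ = x i a c := by
      intro x
      simp [b, Pi.basis_repr, Matrix.stdBasis]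
    rw [hrepr, Pi.mul_apply, Pi.single_eq_same]
    simp
  simp_rw [hb]
  rw [Fintype.sum_sigma]
  refine Finset.sum_congr rfl fun i _ => ?_
  rw [Fintype.sum_prod_type, Matrix.trace]
  simp [Finset.mul_sum]

end Trace

section Block

variable {K : Type*} [Field K] {H : Type*} [Group H] [Fintype H]
variable {ι : Type*} [Fintype ι] [DecidableEq ι] {d : ι → ℕ}
variable (Φ : MonoidAlgebra K H ≃ₐ[K] Π i, Matrix (Fin (d i)) (Fin (d i)) K)

/-- The regular trace formula. -/
theorem card_mul_coeff_one (z : MonoidAlgebra K H) :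
    (Fintype.card H : K) * z.coeff 1 = ∑ i, (d i : K) * Matrix.trace (Φ z i) := by
  rw [← trace_mulLeft_group, ← trace_mulLeft_pi]
  have : LinearMap.mulLeft K (Φ z) = Φ.toLinearEquiv.conj (LinearMap.mulLeft K z) := by
    refine LinearMap.ext fun x => ?_
    rw [LinearEquiv.conj_apply_apply]
    simp
  rw [this, LinearMap.trace_conj']

/-- The block homomorphism. -/
noncomputable def blockRep (i : ι) : H →* Matrix (Fin (d i)) (Fin (d i)) K where
  toFun g := Φ (of K H g) i
  map_one' := by
    show Φ (of K H 1) i = 1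
    rw [map_one, map_one]
    rfl
  map_mul' a b := by
    show Φ (of K H (a * b)) i = Φ (of K H a) i * Φ (of K H b) i
    rw [map_mul, map_mul]
    rfl

theorem blockRep_apply (i : ι) (g : H) : blockRep Φ i g = Φ (of K H g) i := rfl

/-- `|H|` times the central idempotent of a block. -/
noncomputable def blockE (i : ι) : MonoidAlgebra K H :=
  (Fintype.card H : K) • Φ.symm (Pi.single i 1)

theorem phi_blockE (i : ι) : Φ (blockE Φ i) = (Fintype.card H : K) • Pi.single i 1 := by
  simp [blockE]

theorem coeff_blockE (i : ι) (g : H) :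
    (blockE Φ i).coeff g = (d i : K) * Matrix.trace (blockRep Φ i g⁻¹) := by
  classical
  have h1 : (blockE Φ i).coeff g = (Fintype.card H : K) * (Φ.symm (Pi.single i 1)).coeff g := by
    simp [blockE]
  have h2 : (Φ.symm (Pi.single i 1) * of K H g⁻¹).coeff 1 = (Φ.symm (Pi.single i 1)).coeff g := by
    simp [MonoidAlgebra.of_apply, coeff_mul_single_apply]
  rw [h1, ← h2, card_mul_coeff_one Φ, Finset.sum_eq_single i]
  · rw [map_mul, AlgEquiv.apply_symm_apply, Pi.mul_apply, Pi.single_eq_same, one_mul, blockRep_apply]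
  · intro j _ hj
    rw [map_mul, AlgEquiv.apply_symm_apply, Pi.mul_apply, Pi.single_eq_of_ne hj, zero_mul]
    simp
  · intro h
    exact absurd (Finset.mem_univ i) h

/-- Averaging inside a block. -/
theorem block_average (i : ι) (z : MonoidAlgebra K H) (hz : ∀ j, j ≠ i → Φ z j = 0) :
    ((d i : K) ^ 2) • ∑ k : H, of K H k * z * of K H k⁻¹ =
      ((Fintype.card H : K) * z.coeff 1) • blockE Φ i := by
  classical
  apply Φ.injective
  funext j
  rw [map_smul, map_smul, map_sum, phi_blockE, Pi.smul_apply, Pi.smul_apply, Pi.smul_apply,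
    Finset.sum_apply]
  by_cases hj : j = i
  · subst hj
    set X := Φ z j with hX
    set M : Matrix (Fin (d j)) (Fin (d j)) K :=
      ∑ k : H, blockRep Φ j k * X * blockRep Φ j k⁻¹ with hM
    have hsum : ∑ k : H, Φ (of K H k * z * of K H k⁻¹) j = M := by
      refine Finset.sum_congr rfl fun k _ => ?_
      rw [map_mul, map_mul, Pi.mul_apply, Pi.mul_apply]
      rfl
    have hcommg : ∀ g : H, blockRep Φ j g * M = M * blockRep Φ j g := by
      intro g
      rw [hM, Finset.mul_sum, Finset.sum_mul]
      rw [← Equiv.sum_comp (Equiv.mulLeft g)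
        (fun k => blockRep Φ j k * X * blockRep Φ j k⁻¹ * blockRep Φ j g)]
      refine Finset.sum_congr rfl fun k _ => ?_
      simp only [Equiv.coe_mulLeft]
      have h1 : blockRep Φ j (g * k)⁻¹ * blockRep Φ j g = blockRep Φ j k⁻¹ := by
        rw [← map_mul]
        congr 1
        group
      rw [mul_assoc (blockRep Φ j (g * k) * X), h1, map_mul]
      simp only [mul_assoc]
    have hcomm : ∀ w : MonoidAlgebra K H, Φ w j * M = M * Φ w j := by
      intro w
      induction w using MonoidAlgebra.induction_linear with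
      | zero => simp
      | add a b ha hb =>
        rw [map_add, Pi.add_apply, add_mul, mul_add, ha, hb]
      | single g c =>
        have : single g c = c • of K H g := by
          simp [MonoidAlgebra.of_apply]
        rw [this, map_smul, Pi.smul_apply, smul_mul_assoc, mul_smul_comm, ← blockRep_apply, hcommg]
    obtain ⟨a, ha⟩ : M ∈ Set.range (Matrix.scalar (Fin (d j))) := by
      refine Matrix.mem_range_scalar_of_commute_single ?_
      intro p q _
      have := hcomm (Φ.symm (Pi.single j (Matrix.single p q 1)))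
      rw [AlgEquiv.apply_symm_apply, Pi.single_eq_same] at this
      exact this
    have htr : (d j : K) * a = (Fintype.card H : K) * Matrix.trace X := by
      have h1 : Matrix.trace M = (d j : K) * a := by
        rw [← ha]
        simp [Matrix.trace, Matrix.scalar_apply]
      rw [← h1, hM, Matrix.trace_sum]
      have : ∀ k : H, Matrix.trace (blockRep Φ j k * X * blockRep Φ j k⁻¹) = Matrix.trace X := by
        intro k
        rw [Matrix.trace_mul_comm, ← mul_assoc, ← map_mul]
        simp
      simp [this]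
    have hreg : (Fintype.card H : K) * z.coeff 1 = (d j : K) * Matrix.trace X := by
      rw [card_mul_coeff_one Φ, Finset.sum_eq_single j]
      · intro l _ hl
        rw [hz l hl]
        simp
      · intro h
        exact absurd (Finset.mem_univ j) h
    rw [hsum, Pi.single_eq_same, ← ha]
    ext p q
    by_cases hpq : p = q
    · subst hpq
      simp
      rw [sq, mul_assoc, htr, ← mul_assoc, mul_comm (d j : K), mul_assoc, ← hreg]
      ring
    · simp [hpq]
  · have h0 : (Pi.single i 1 : Π l, Matrix (Fin (d l)) (Fin (d l)) K) j = 0 :=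
      Pi.single_eq_of_ne hj _
    rw [h0, smul_zero, smul_zero]
    have : ∀ k : H, Φ (of K H k * z * of K H k⁻¹) j = 0 := by
      intro k
      rw [map_mul, map_mul, Pi.mul_apply, Pi.mul_apply, hz j hj]
      simp
    rw [Finset.sum_eq_zero (fun k _ => this k)]
    simp

end Block

section Reduction

variable {K : Type*} [Field K] {H : Type*} [Group H] [Fintype H]
variable {ι : Type*} [Fintype ι] [DecidableEq ι] {d : ι → ℕ}
variable (Φ : MonoidAlgebra K H ≃ₐ[K] Π i, Matrix (Fin (d i)) (Fin (d i)) K)
variable {O : Type*} [CommRing O] [IsDomain O] (f : O →+* K) (hf : Function.Injective f)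
variable {κ : Type*} [Field κ] (π : O →+* κ) {n : ℕ} (τ : H →* Matrix (Fin n) (Fin n) κ)

/-- The reduction map of the group ring. -/
noncomputable def theta : MonoidAlgebra O H →+* Matrix (Fin n) (Fin n) κ :=
  liftNCRingHom ((Matrix.scalar (Fin n)).comp π) τ (fun x y => by
    simpa using (Matrix.scalar_commute (π x) (fun _ => mul_comm _ _) (τ y)))

theorem theta_of (g : H) : theta π τ (of O H g) = τ g := by
  simp [theta, MonoidAlgebra.of_apply]

theorem theta_smul (a : O) (x : MonoidAlgebra O H) :
    theta π τ (a • x) = π a • theta π τ x := by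
  have : a • x = single 1 a * x := by
    ext g
    simp
  rw [this, map_mul]
  have h1 : theta π τ (single 1 a) = Matrix.scalar (Fin n) (π a) := by
    simp [theta]
  rw [h1]
  ext p q
  simp [Matrix.scalar_apply, Matrix.diagonal_mul]

theorem map_smul' (a : O) (x : MonoidAlgebra O H) :
    mapRingHom H f (a • x) = f a • mapRingHom H f x := by
  ext g
  simp

theorem map_of' (g : H) : mapRingHom H f (of O H g) = of K H g := by
  simp [MonoidAlgebra.of_apply]

omit [Fintype H] in
theorem map_injective' (hf : Function.Injective f) :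
    Function.Injective (mapRingHom H f) := by
  intro x y h
  ext g
  apply hf
  have := congrArg (fun z => z.coeff g) h
  simpa using this

theorem exists_lift (z : MonoidAlgebra K H) (hz : ∀ g, z.coeff g ∈ Set.range f) :
    ∃ z₀ : MonoidAlgebra O H, mapRingHom H f z₀ = z := by
  choose c hc using hz
  refine ⟨∑ g, single g (c g), ?_⟩
  ext g
  classical
  rw [map_sum]
  simp [coeff_sum, hc]

include hf in
/-- A block element killed by the reduction has coefficient at `1` in the kernel. -/
theorem pi_coeff_one_eq_zero (i : ι) (E₀ : MonoidAlgebra O H)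
    (hE : mapRingHom H f E₀ = blockE Φ i)
    (hN : π (Fintype.card H : O) ≠ 0) (hΘE : theta π τ E₀ ≠ 0)
    (z₀ : MonoidAlgebra O H) (hz : ∀ j, j ≠ i → Φ (mapRingHom H f z₀) j = 0)
    (hΘ : theta π τ z₀ = 0) :
    π (z₀.coeff 1) = 0 := by
  have h1 := block_average Φ i (mapRingHom H f z₀) hz
  have h2 : ((d i : O) ^ 2) • ∑ k : H, of O H k * z₀ * of O H k⁻¹ =
      ((Fintype.card H : O) * z₀.coeff 1) • E₀ := by
    apply map_injective' f hf
    rw [map_smul', map_smul', map_sum, hE]
    simp only [map_mul, map_of']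
    convert h1 using 2 <;> simp
  have h3 := congrArg (theta π τ) h2
  rw [theta_smul, theta_smul, map_sum] at h3
  have h4 : ∀ k, theta π τ (of O H k * z₀ * of O H k⁻¹) = 0 := by
    intro k
    rw [map_mul, map_mul, hΘ]
    simp
  rw [Finset.sum_eq_zero (fun k _ => h4 k), smul_zero] at h3
  have h5 := h3.symm
  rw [smul_eq_zero] at h5
  rcases h5 with h5 | h5
  · rw [map_mul] at h5
    exact (mul_eq_zero.mp h5).resolve_left hN
  · exact absurd h5 hΘE

omit [IsDomain O] in
variable {π} in
/-- An "idempotent" with all coefficients in a prime ideal vanishes (`O` a domain). -/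
theorem eq_zero_of_sq_eq_smul [IsDomain O] (Y : MonoidAlgebra O H) (c : O) (hc : π c ≠ 0)
    (hY : Y * Y = c • Y) (h0 : ∀ g, π (Y.coeff g) = 0) : Y = 0 := by
  classical
  let y : H → O := fun g => Y.coeff g
  let Q : Matrix H H O := c • 1 - Matrix.of fun g a => y (g * a⁻¹)
  have hQ : Q.mulVec y = 0 := by
    funext g
    have h1 : (Y * Y).coeff g = ∑ a, y (g * a⁻¹) * y a := by
      rw [coeff_mul_apply_right, Finsupp.sum_fintype _ _ (by simp)]
    have h2 : (Y * Y).coeff g = c * y g := by
      rw [hY]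
      simp [y]
    simp only [Q, Matrix.sub_mulVec, Matrix.smul_mulVec, Matrix.one_mulVec, Pi.sub_apply,
      Pi.smul_apply, Pi.zero_apply, smul_eq_mul]
    rw [← h2, h1]
    simp [Matrix.mulVec, dotProduct]
  have hdet : Q.det ≠ 0 := by
    intro h
    have h3 : π (Q.det) = (π c) ^ (Fintype.card H) := by
      rw [RingHom.map_det]
      have : π.mapMatrix Q = π c • 1 := by
        ext p q
        by_cases hpq : p = q
        · subst hpq
          simp [Q, y, h0]
        · simp [Q, y, h0, hpq]
      rw [this, Matrix.det_smul, Matrix.det_one, mul_one]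
    rw [h, map_zero] at h3
    exact pow_ne_zero _ hc h3.symm
  have := Matrix.eq_zero_of_mulVec_eq_zero hdet hQ
  ext g
  exact congrFun this g

end Reduction

section Norm

variable {H : Type*} [Group H] [Fintype H]

/-- The norm element of a cyclic subgroup in the group ring. -/
noncomputable def nm (R : Type*) [CommRing R] (h : H) : MonoidAlgebra R H :=
  ∑ j ∈ Finset.range (orderOf h), of R H (h ^ j)

omit [Fintype H] in
theorem of_mul_nm (R : Type*) [CommRing R] (h : H) : of R H h * nm R h = nm R h := by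
  unfold nm
  rw [Finset.mul_sum]
  have h1 : ∀ i, of R H h * of R H (h ^ i) = of R H (h ^ (i + 1)) := by
    intro i
    rw [← map_mul, pow_succ']
  simp_rw [h1]
  have h2 := Finset.sum_range_succ' (fun i => of R H (h ^ i)) (orderOf h)
  have h3 := Finset.sum_range_succ (fun i => of R H (h ^ i)) (orderOf h)
  rw [h3] at h2
  simp only [pow_orderOf_eq_one, pow_zero] at h2
  exact (add_right_cancel h2).symm

omit [Fintype H] in
theorem pow_mul_nm (R : Type*) [CommRing R] (h : H) (i : ℕ) :
    of R H (h ^ i) * nm R h = nm R h := by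
  induction i with
  | zero => rw [pow_zero, map_one, one_mul]
  | succ i ih => rw [pow_succ, map_mul, mul_assoc, of_mul_nm, ih]

omit [Fintype H] in
theorem nm_mul_nm (R : Type*) [CommRing R] (h : H) :
    nm R h * nm R h = (orderOf h : R) • nm R h := by
  conv_lhs => enter [1]; rw [nm]
  rw [Finset.sum_mul, Finset.sum_congr rfl (fun i _ => pow_mul_nm R h i)]
  simp [Nat.cast_smul_eq_nsmul]

end Norm

section Main

variable {K : Type*} [Field K] {H : Type*} [Group H] [Fintype H]
variable {ι : Type*} [Fintype ι] [DecidableEq ι] {d : ι → ℕ}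
variable (Φ : MonoidAlgebra K H ≃ₐ[K] Π i, Matrix (Fin (d i)) (Fin (d i)) K)
variable {O : Type*} [CommRing O] [IsDomain O] (f : O →+* K) (hf : Function.Injective f)
variable {κ : Type*} [Field κ] (π : O →+* κ) {n : ℕ} (τ : H →* Matrix (Fin n) (Fin n) κ)

theorem blockE_comm (i : ι) (w : MonoidAlgebra K H) : blockE Φ i * w = w * blockE Φ i := by
  apply Φ.injective
  rw [map_mul, map_mul, phi_blockE]
  funext j
  by_cases hj : j = i
  · subst hj
    simp
  · simp [Pi.single_eq_of_ne hj]

theorem blockE_sq (i : ι) : blockE Φ i * blockE Φ i = (Fintype.card H : K) • blockE Φ i := by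
  apply Φ.injective
  rw [map_mul, map_smul, phi_blockE]
  funext j
  by_cases hj : j = i
  · subst hj
    simp
  · simp [Pi.single_eq_of_ne hj]

theorem phi_blockE_mul_ne (i j : ι) (hj : j ≠ i) (w : MonoidAlgebra K H) :
    Φ (w * blockE Φ i) j = 0 := by
  rw [map_mul, phi_blockE]
  simp [Pi.single_eq_of_ne hj]

include hf in
/-- The main lemma: the block of a reduction with nonzero image and the norm elements. -/
theorem sum_pow_eq_zero (i : ι) (E₀ : MonoidAlgebra O H)
    (hE : mapRingHom H f E₀ = blockE Φ i)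
    (hN : π (Fintype.card H : O) ≠ 0) (hNK : (Fintype.card H : K) ≠ 0)
    (hΘE : theta π τ E₀ ≠ 0)
    (h : H) (hdet : (τ h - 1).det ≠ 0) :
    ∑ j ∈ Finset.range (orderOf h), (blockRep Φ i h) ^ j = 0 := by
  classical
  have hFS : mapRingHom H f (nm O h) = nm K h := by
    unfold nm
    rw [map_sum]
    exact Finset.sum_congr rfl fun j _ => map_of' f _
  have hΘS : theta π τ (nm O h) = 0 := by
    have h1 : theta π τ (nm O h) = ∑ j ∈ Finset.range (orderOf h), (τ h) ^ j := by
      unfold nm
      rw [map_sum]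
      refine Finset.sum_congr rfl fun j _ => ?_
      rw [theta_of, map_pow]
    have h2 : (τ h - 1) * theta π τ (nm O h) = 0 := by
      rw [h1, mul_geom_sum, ← map_pow, pow_orderOf_eq_one, map_one, sub_self]
    have hu : IsUnit (τ h - 1) := by
      rw [Matrix.isUnit_iff_isUnit_det]
      exact isUnit_iff_ne_zero.mpr hdet
    exact (hu.mul_right_eq_zero).mp h2
  set Y₀ := nm O h * E₀ with hY₀
  have hFY : mapRingHom H f Y₀ = nm K h * blockE Φ i := by
    rw [hY₀, map_mul, hFS, hE]
  have hΘY : ∀ g : H, theta π τ (Y₀ * of O H g) = 0 := by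
    intro g
    rw [map_mul, hY₀, map_mul, hΘS]
    simp
  have hcoef : ∀ g, π (Y₀.coeff g) = 0 := by
    intro g
    have h1 : (Y₀ * of O H g⁻¹).coeff 1 = Y₀.coeff g := by
      simp [MonoidAlgebra.of_apply, coeff_mul_single_apply]
    rw [← h1]
    refine pi_coeff_one_eq_zero Φ f hf π τ i E₀ hE hN hΘE _ ?_ (hΘY _)
    intro j hj
    rw [map_mul, hFY, map_of', mul_assoc, blockE_comm, ← mul_assoc]
    exact phi_blockE_mul_ne Φ i j hj _
  have hYY : Y₀ * Y₀ = (((orderOf h : O)) * (Fintype.card H : O)) • Y₀ := by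
    apply map_injective' f hf
    rw [map_smul', map_mul, hFY]
    have : nm K h * blockE Φ i * (nm K h * blockE Φ i) =
        (nm K h * nm K h) * (blockE Φ i * blockE Φ i) := by
      rw [mul_assoc, ← mul_assoc (blockE Φ i), blockE_comm, mul_assoc, mul_assoc]
    rw [this, nm_mul_nm, blockE_sq, smul_mul_smul_comm, map_mul, map_natCast, map_natCast]
  have hc : π ((orderOf h : O) * (Fintype.card H : O)) ≠ 0 := by
    rw [map_mul]
    refine mul_ne_zero ?_ hN
    intro h0
    apply hN
    obtain ⟨q, hq⟩ := orderOf_dvd_card (x := h)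
    rw [hq]
    push_cast
    rw [map_mul, h0, zero_mul]
  have hY : Y₀ = 0 := eq_zero_of_sq_eq_smul (π := π) Y₀ _ hc hYY hcoef
  have h1 : nm K h * blockE Φ i = 0 := by
    rw [← hFY, hY, map_zero]
  have h2 := congrFun (congrArg Φ h1) i
  rw [map_mul, phi_blockE, Pi.mul_apply, map_zero, Pi.zero_apply] at h2
  have h3 : Φ (nm K h) i = ∑ j ∈ Finset.range (orderOf h), (blockRep Φ i h) ^ j := by
    unfold nm
    rw [map_sum, Finset.sum_apply]
    refine Finset.sum_congr rfl fun j _ => ?_
    rw [← map_pow (blockRep Φ i), blockRep_apply]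
  rw [← h3]
  simpa [hNK] using h2

include hf in
/-- The top level: some block works for all elements without fixed points in the reduction. -/
theorem exists_block (hn : 0 < n) (hN : π (Fintype.card H : O) ≠ 0)
    (hNK : (Fintype.card H : K) ≠ 0)
    (hO : ∀ (i : ι) (g : H), ((d i : K) * Matrix.trace (blockRep Φ i g⁻¹)) ∈ Set.range f) :
    ∃ i, ∀ h : H, (τ h - 1).det ≠ 0 →
      ∑ j ∈ Finset.range (orderOf h), (blockRep Φ i h) ^ j = 0 := by
  classical
  have hex : ∀ i, ∃ E₀ : MonoidAlgebra O H, mapRingHom H f E₀ = blockE Φ i := by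
    intro i
    refine exists_lift f _ fun g => ?_
    rw [coeff_blockE]
    exact hO i g
  choose E₀ hE₀ using hex
  have hsum : ∑ i, E₀ i = (Fintype.card H : O) • 1 := by
    apply map_injective' f hf
    rw [map_sum, map_smul', map_one, map_natCast]
    simp_rw [hE₀]
    apply Φ.injective
    rw [map_sum, map_smul, map_one]
    simp_rw [phi_blockE]
    rw [← Finset.smul_sum]
    congr 1
    exact Finset.univ_sum_single _
  have hne : ∃ i, theta π τ (E₀ i) ≠ 0 := by
    by_contra hcon
    push Not at hcon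
    have h1 := congrArg (theta π τ) hsum
    rw [map_sum, Finset.sum_eq_zero (fun i _ => hcon i), theta_smul, map_one] at h1
    have h2 := (smul_eq_zero.mp h1.symm).resolve_left hN
    haveI : Nonempty (Fin n) := ⟨⟨0, hn⟩⟩
    exact one_ne_zero h2
  obtain ⟨i, hi⟩ := hne
  exact ⟨i, fun h hdet => sum_pow_eq_zero Φ f hf π τ i (E₀ i) (hE₀ i) hN hNK hi h hdet⟩

end Main

section Final

theorem isIntegral_trace_of_pow_eq_one {K : Type*} [Field K] [IsAlgClosed K] {n : ℕ}
    (M : Matrix (Fin n) (Fin n) K) {N : ℕ} (hN : 0 < N) (h : M ^ N = 1) :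
    IsIntegral ℤ (Matrix.trace M) := by
  classical
  rw [Matrix.trace_eq_sum_roots_charpoly_of_splits (IsAlgClosed.splits _)]
  refine IsIntegral.multiset_sum ?_
  intro x hx
  have hx' : x ∈ spectrum K M := by
    rw [Matrix.mem_spectrum_iff_isRoot_charpoly]
    exact (Polynomial.mem_roots'.mp hx).2
  have h1 : x ^ N ∈ spectrum K (M ^ N) := spectrum.pow_mem_pow M N hx'
  rw [h] at h1
  have h2 : x ^ N = 1 := by
    rcases isEmpty_or_nonempty (Fin n) with he | he
    · haveI : Subsingleton (Matrix (Fin n) (Fin n) K) := inferInstance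
      rw [spectrum.of_subsingleton] at h1
      exact absurd h1 (Set.notMem_empty _)
    · rw [spectrum.one_eq] at h1
      simpa using h1
  exact IsIntegral.of_pow hN (by rw [h2]; exact isIntegral_one)

/-- The lift theorem: a modular representation in coprime characteristic gives an irreducible
representation in characteristic zero in which elements without fixed points in the modular
representation have no fixed points. -/
theorem fpf_lift {K : Type*} [Field K] [IsAlgClosed K] [CharZero K] {H : Type*} [Group H] [Finite H]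
    {r : ℕ} [hrp : Fact r.Prime] (hr : ¬ r ∣ Nat.card H) {n : ℕ} (hn : 0 < n)
    (σ : H →* Matrix (Fin n) (Fin n) (ZMod r)) :
    ∃ (m : ℕ) (ρ : H →* Matrix (Fin m) (Fin m) K), 0 < m ∧
      (∀ W : Submodule K (Fin m → K), (∀ g, ∀ w ∈ W, (ρ g).mulVec w ∈ W) → W = ⊥ ∨ W = ⊤) ∧
      ∀ h, (σ h - 1).det ≠ 0 → ∀ v, (ρ h).mulVec v = v → v = 0 := by
  classical
  haveI := Fintype.ofFinite H
  have hNK : (Fintype.card H : K) ≠ 0 := Nat.cast_ne_zero.mpr Fintype.card_ne_zero
  haveI : NeZero (Nat.card H : K) := ⟨by rw [Nat.card_eq_fintype_card]; exact hNK⟩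
  haveI : IsSemisimpleRing (MonoidAlgebra K H) := inferInstance
  haveI : FiniteDimensional K (MonoidAlgebra K H) := inferInstance
  obtain ⟨l, d, hd, ⟨Φ⟩⟩ :=
    IsSemisimpleRing.exists_algEquiv_pi_matrix_of_isAlgClosed K (MonoidAlgebra K H)
  let O := integralClosure ℤ K
  let f : O →+* K := algebraMap O K
  have hf : Function.Injective f := Subtype.val_injective
  have hnu : ¬ IsUnit (r : O) := by
    intro hu
    obtain ⟨x, hx⟩ := hu.exists_right_inv
    have hr0 : (r : ℚ) ≠ 0 := Nat.cast_ne_zero.mpr hrp.out.ne_zero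
    have hx' : (x : K) = algebraMap ℚ K (r : ℚ)⁻¹ := by
      have h1 : ((r : K)) * (x : K) = 1 := by
        have := congrArg (Subtype.val) hx
        simpa using this
      have hrK : (r : K) ≠ 0 := Nat.cast_ne_zero.mpr hrp.out.ne_zero
      rw [map_inv₀, map_natCast]
      exact eq_inv_of_mul_eq_one_right h1
    have hint : IsIntegral ℤ (algebraMap ℚ K (r : ℚ)⁻¹) := hx' ▸ x.2
    have hint' : IsIntegral ℤ ((r : ℚ)⁻¹) :=
      (isIntegral_algebraMap_iff (algebraMap ℚ K).injective).mp hint
    obtain ⟨q, hq⟩ := IsIntegrallyClosed.isIntegral_iff.mp hint'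
    have h3 : (q : ℚ) * r = 1 := by
      have : (algebraMap ℤ ℚ q) = (q : ℚ) := rfl
      rw [this] at hq
      rw [hq]
      exact inv_mul_cancel₀ hr0
    have h4 : q * (r : ℤ) = 1 := by exact_mod_cast h3
    have h5 : (r : ℤ) ∣ 1 := ⟨q, by rw [mul_comm]; exact h4.symm⟩
    have h6 := Int.natCast_dvd_natCast.mp (by simpa using h5 : (r : ℤ) ∣ ((1 : ℕ) : ℤ))
    exact hrp.out.one_lt.ne' (Nat.dvd_one.mp h6)
  obtain ⟨𝔯, h𝔯, hr𝔯⟩ := Ideal.exists_le_maximal (Ideal.span {(r : O)})
    (by
      rw [Ne, Ideal.span_singleton_eq_top]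
      exact hnu)
  letI : Field (O ⧸ 𝔯) := Ideal.Quotient.field 𝔯
  let π : O →+* (O ⧸ 𝔯) := Ideal.Quotient.mk 𝔯
  have hπr : ((r : ℕ) : O ⧸ 𝔯) = 0 := by
    have : π (r : O) = 0 := Ideal.Quotient.eq_zero_iff_mem.mpr
      (hr𝔯 (Ideal.subset_span rfl))
    simpa [π] using this
  haveI : CharP (O ⧸ 𝔯) r := by
    exact ringChar.of_eq (CharP.ringChar_of_prime_eq_zero hrp.out hπr)
  let ι' : ZMod r →+* (O ⧸ 𝔯) := ZMod.castHom (dvd_refl r) _
  let τ : H →* Matrix (Fin n) (Fin n) (O ⧸ 𝔯) :=
    (RingHom.mapMatrix ι').toMonoidHom.comp σ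
  have hN : π (Fintype.card H : O) ≠ 0 := by
    rw [map_natCast]
    intro h0
    apply hr
    rw [Nat.card_eq_fintype_card]
    exact (CharP.cast_eq_zero_iff (O ⧸ 𝔯) r _).mp h0
  have hO : ∀ (i : Fin l) (g : H), ((d i : K) * Matrix.trace (blockRep Φ i g⁻¹)) ∈ Set.range f := by
    intro i g
    have h1 : IsIntegral ℤ (Matrix.trace (blockRep Φ i g⁻¹)) := by
      refine isIntegral_trace_of_pow_eq_one _ (N := Fintype.card H) Fintype.card_pos ?_
      rw [← map_pow, pow_card_eq_one, map_one]
    have h2 : IsIntegral ℤ ((d i : K) * Matrix.trace (blockRep Φ i g⁻¹)) :=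
      (isIntegral_natCast (R := ℤ) (d i)).mul h1
    exact ⟨⟨_, h2⟩, rfl⟩
  obtain ⟨i, hi⟩ := exists_block Φ f hf π τ hn hN hNK hO
  refine ⟨d i, blockRep Φ i, Nat.pos_of_ne_zero (hd i).out, ?_, ?_⟩
  · intro W hW
    by_cases hbot : W = ⊥
    · exact Or.inl hbot
    refine Or.inr ?_
    have hinv : ∀ w : MonoidAlgebra K H, ∀ v ∈ W, (Φ w i).mulVec v ∈ W := by
      intro w v hv
      induction w using MonoidAlgebra.induction_linear with
      | zero => simp
      | add a b ha hb =>
        rw [map_add, Pi.add_apply, Matrix.add_mulVec]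
        exact W.add_mem ha hb
      | single g c =>
        have : single g c = c • of K H g := by
          simp [MonoidAlgebra.of_apply]
        rw [this, map_smul, Pi.smul_apply, Matrix.smul_mulVec]
        exact W.smul_mem _ (hW g v hv)
    have hA : ∀ (A : Matrix (Fin (d i)) (Fin (d i)) K), ∀ v ∈ W, A.mulVec v ∈ W := by
      intro A v hv
      have := hinv (Φ.symm (Pi.single i A)) v hv
      rw [AlgEquiv.apply_symm_apply, Pi.single_eq_same] at this
      exact this
    obtain ⟨v, hv, hv0⟩ := (Submodule.ne_bot_iff W).mp hbot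
    obtain ⟨a, ha⟩ : ∃ a, v a ≠ 0 := by
      by_contra hcon
      push Not at hcon
      exact hv0 (funext hcon)
    rw [eq_top_iff]
    intro x _
    have hx : x = (Matrix.of fun b c => if c = a then x b / v a else 0).mulVec v := by
      funext b
      simp [Matrix.mulVec, dotProduct]
      field_simp
    rw [hx]
    exact hA _ v hv
  · intro h hdet v hv
    have hdet' : (τ h - 1).det ≠ 0 := by
      have h1 : τ h - 1 = (RingHom.mapMatrix ι') (σ h - 1) := by
        rw [map_sub, map_one]
        rfl
      rw [h1, ← RingHom.map_det]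
      intro h0
      exact hdet ((map_eq_zero_iff ι' ι'.injective).mp h0)
    have h2 := hi h hdet'
    have h3 : (∑ j ∈ Finset.range (orderOf h), (blockRep Φ i h) ^ j).mulVec v =
        (orderOf h : K) • v := by
      rw [Matrix.sum_mulVec]
      have h4 : ∀ j : ℕ, ((blockRep Φ i h) ^ j).mulVec v = v := by
        intro j
        induction j with
        | zero => simp
        | succ j ih => rw [pow_succ, ← Matrix.mulVec_mulVec, hv, ih]
      simp [h4, Nat.cast_smul_eq_nsmul]
    rw [h2, Matrix.zero_mulVec] at h3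
    have h5 : (orderOf h : K) ≠ 0 := Nat.cast_ne_zero.mpr (orderOf_pos h).ne'
    exact (smul_eq_zero.mp h3.symm).resolve_left h5

end Final

section Rep

open Subgroup

/-- A linear representation over `ZMod ℓ` from additive maps. -/
def zRep (ℓ : ℕ) {H M : Type*} [Group H] [AddCommGroup M] [Module (ZMod ℓ) M] (r : H → (M →+ M))
    (h1 : r 1 = AddMonoidHom.id M) (hm : ∀ a b, r (a * b) = (r a).comp (r b)) :
    H →* Module.End (ZMod ℓ) M where
  toFun a := (r a).toZModLinearMap ℓ
  map_one' := by
    refine LinearMap.ext fun v => ?_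
    rw [Module.End.one_apply, AddMonoidHom.coe_toZModLinearMap, h1]
    rfl
  map_mul' := by
    intro a b
    refine LinearMap.ext fun v => ?_
    rw [Module.End.mul_apply, AddMonoidHom.coe_toZModLinearMap, AddMonoidHom.coe_toZModLinearMap,
      AddMonoidHom.coe_toZModLinearMap, hm]
    rfl

/-- Additive fixed point free actions on `ZMod ℓ`-modules give matrix representations without
eigenvalue one. -/
theorem exists_matrix_of_add {ℓ : ℕ} [Fact ℓ.Prime] {H M : Type*} [Group H] [AddCommGroup M]
    [Module (ZMod ℓ) M] [Finite M] [Nontrivial M] (r : H → (M →+ M))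
    (h1 : r 1 = AddMonoidHom.id M) (hm : ∀ a b, r (a * b) = (r a).comp (r b))
    (hfpf : ∀ g : H, g ≠ 1 → ∀ v, r g v = v → v = 0) :
    ∃ (n : ℕ) (σ : H →* Matrix (Fin n) (Fin n) (ZMod ℓ)),
      0 < n ∧ ∀ g : H, g ≠ 1 → (σ g - 1).det ≠ 0 := by
  classical
  haveI : Module.Finite (ZMod ℓ) M := Module.Finite.of_finite
  let ρ : H →* Module.End (ZMod ℓ) M := zRep ℓ r h1 hm
  let b := Module.finBasis (ZMod ℓ) M
  let σ : H →* Matrix (Fin (Module.finrank (ZMod ℓ) M))
      (Fin (Module.finrank (ZMod ℓ) M)) (ZMod ℓ) :=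
    (LinearMap.toMatrixAlgEquiv b).toAlgHom.toRingHom.toMonoidHom.comp ρ
  refine ⟨_, σ, Module.finrank_pos, ?_⟩
  intro g hg hdet
  have h2 : σ g - 1 = LinearMap.toMatrix b b (ρ g - 1) := by
    rw [map_sub, LinearMap.toMatrix_one]
    rfl
  rw [h2, LinearMap.det_toMatrix] at hdet
  have h3 := LinearMap.bot_lt_ker_of_det_eq_zero hdet
  obtain ⟨v, hv, hv0⟩ := Submodule.exists_mem_ne_zero_of_ne_bot h3.ne'
  have h4 : r g v = v := by
    have := LinearMap.mem_ker.mp hv
    rw [LinearMap.sub_apply, sub_eq_zero] at this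
    exact this
  exact hv0 (hfpf g hg v h4)

/-- A fixed point free action on a nontrivial finite abelian group of coprime order gives a
matrix representation in a coprime characteristic without eigenvalue one. -/
theorem exists_matrix_rep_comm {A : Type*} {H : Type*} [CommGroup A] [Finite A] [Nontrivial A]
    [Group H] [Finite H] (act : H →* MulAut A)
    (hfpf : ∀ g : H, g ≠ 1 → ∀ x : A, act g x = x → x = 1)
    (hcop : (Nat.card H).Coprime (Nat.card A)) :
    ∃ (ℓ : ℕ) (_ : Fact ℓ.Prime) (n : ℕ) (σ : H →* Matrix (Fin n) (Fin n) (ZMod ℓ)),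
      0 < n ∧ ¬ ℓ ∣ Nat.card H ∧ ∀ g : H, g ≠ 1 → (σ g - 1).det ≠ 0 := by
  classical
  obtain ⟨ℓ, hℓ, hℓA⟩ := Nat.exists_prime_and_dvd (Finite.one_lt_card (α := A)).ne'
  haveI : Fact ℓ.Prime := ⟨hℓ⟩
  have hℓH : ¬ ℓ ∣ Nat.card H := fun h =>
    hℓ.one_lt.ne' (Nat.eq_one_of_dvd_coprimes hcop h hℓA)
  let V₀ : Subgroup A := (powMonoidHom ℓ : A →* A).ker
  have hV₀ : ∀ x : A, x ∈ V₀ ↔ x ^ ℓ = 1 := fun x => MonoidHom.mem_ker
  have hV : ∀ v : Additive V₀, ℓ • v = 0 := by
    intro v
    have h1 := (hV₀ _).mp (Additive.toMul v).2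
    apply Additive.toMul.injective
    apply Subtype.ext
    simpa using h1
  letI hmod : Module (ZMod ℓ) (Additive V₀) := AddCommGroup.zmodModule hV
  have hconjV : ∀ (a : H) (x : V₀), act a x.1 ∈ V₀ := by
    intro a x
    rw [hV₀, ← map_pow, (hV₀ _).mp x.2, map_one]
  let c : H → (V₀ →* V₀) := fun a =>
    { toFun := fun x => ⟨act a x.1, hconjV a x⟩
      map_one' := by
        apply Subtype.ext
        exact map_one (act a)
      map_mul' := by
        intro x y
        apply Subtype.ext
        exact map_mul (act a) _ _ }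
  have hc : ∀ (a : H) (x : V₀), ((c a x).1 : A) = act a x.1 := fun _ _ => rfl
  have hc1 : c 1 = MonoidHom.id V₀ := by
    ext x
    rw [hc, map_one]
    rfl
  have hcm : ∀ a b : H, c (a * b) = (c a).comp (c b) := by
    intro a b
    ext x
    rw [hc, map_mul]
    rfl
  haveI : Finite (Additive V₀) := Finite.of_equiv V₀ Additive.ofMul
  haveI hnt : Nontrivial (Additive V₀) := by
    obtain ⟨x, hx⟩ := exists_prime_orderOf_dvd_card' ℓ hℓA
    have hx1 : x ^ ℓ = 1 := by rw [← hx]; exact pow_orderOf_eq_one x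
    have hxne : x ≠ 1 := by
      rintro rfl
      rw [orderOf_one] at hx
      exact hℓ.one_lt.ne hx
    refine ⟨⟨Additive.ofMul ⟨x, (hV₀ x).mpr hx1⟩, 0, ?_⟩⟩
    intro h
    have h3 : (⟨x, (hV₀ x).mpr hx1⟩ : V₀) = 1 := Additive.ofMul.injective h
    exact hxne (congrArg Subtype.val h3)
  obtain ⟨n, σ, hn, hσ⟩ := exists_matrix_of_add (ℓ := ℓ) (fun a => MonoidHom.toAdditive (c a))
    (by
      show MonoidHom.toAdditive (c 1) = _
      rw [hc1]
      rfl)
    (by
      intro a b
      show MonoidHom.toAdditive (c (a * b)) = _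
      rw [hcm]
      rfl)
    (by
      intro g hg v hv
      have h1 : act g (Additive.toMul v).1 = (Additive.toMul v).1 := by
        have : ((Additive.toMul (MonoidHom.toAdditive (c g) v)).1 : A) =
            act g (Additive.toMul v).1 := rfl
        rw [← this, hv]
      have h4 := hfpf g hg _ h1
      apply Additive.toMul.injective
      apply Subtype.ext
      exact h4)
  exact ⟨ℓ, inferInstance, n, σ, hn, hℓH, hσ⟩

/-- A Frobenius complement has a matrix representation in a coprime characteristic without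
eigenvalue one. -/
theorem exists_matrix_rep_of_complement {L : Type*} [Group L] [Finite L] {H : Subgroup L}
    (hH : Cfsg.IsFrobeniusComplement H) :
    ∃ (ℓ : ℕ) (_ : Fact ℓ.Prime) (n : ℕ) (σ : H →* Matrix (Fin n) (Fin n) (ZMod ℓ)),
      0 < n ∧ ¬ ℓ ∣ Nat.card H ∧ ∀ g : H, g ≠ 1 → (σ g - 1).det ≠ 0 := by
  classical
  obtain ⟨N, hN, hNn, hc⟩ := Cfsg.Agent.Lib.Char.FrobeniusKernel.frobenius_theorem H hH
  have hNb : N ≠ ⊥ := by
    rintro rfl
    apply hH.2.1
    have h1 : Nat.card H = Nat.card L := by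
      have := hc.card_mul_card
      simpa using this
    exact Subgroup.eq_top_of_card_eq _ h1
  have hHN : H ≤ normalizer (N : Set L) := by
    haveI := hNn
    exact le_normalizer_of_normal (H := N)
  have hfpf : ∀ a ∈ H, a ≠ 1 → ∀ v ∈ N, a * v = v * a → v = 1 := fun a ha ha1 v hv hcomm =>
    Cfsg.Agent.Lib.Frobenius.Basic.kernel_fpf hH hN ha ha1 hv hcomm
  have hZ := Cfsg.Agent.Lib.Frobenius.Center.center_ne_bot_of_fpf hNb hH.1 hHN hfpf
  obtain ⟨⟨z, hz⟩, hz1'⟩ := Subgroup.ne_bot_iff_exists_ne_one.mp hZ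
  have hz1 : z ≠ 1 := fun h => hz1' (Subtype.ext h)
  obtain ⟨q, hq, hqd⟩ := Nat.exists_prime_and_dvd (orderOf_eq_one_iff.not.mpr hz1)
  haveI : Fact q.Prime := ⟨hq⟩
  obtain ⟨k, hk⟩ := hqd
  let w : L := ((z ^ k : H) : L)
  have hw1 : w ≠ 1 := by
    intro h
    have h2 : z ^ k = 1 := Subtype.ext h
    have h3 := orderOf_dvd_of_pow_eq_one h2
    have hpos : 0 < orderOf z := orderOf_pos z
    rw [hk] at h3 hpos
    have hk0 : 0 < k := Nat.pos_of_mul_pos_left hpos |> fun _ => Nat.pos_of_ne_zero (by
      rintro rfl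
      simp at hpos)
    have := Nat.le_of_dvd hk0 h3
    have hq2 := hq.two_le
    nlinarith
  have hwq : w ^ q = 1 := by
    have : (z ^ k) ^ q = 1 := by
      rw [← pow_mul, mul_comm, ← hk, pow_orderOf_eq_one]
    have h2 := congrArg (Subtype.val) this
    simpa [w] using h2
  have hwc : ∀ a ∈ H, a⁻¹ * w * a = w := by
    intro a ha
    have h1 : (z ^ k : H) ∈ Subgroup.center H := Subgroup.pow_mem _ hz _
    have h2 := (Subgroup.mem_center_iff.mp h1) ⟨a, ha⟩
    have h3 : a * w = w * a := congrArg Subtype.val h2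
    rw [mul_assoc, ← h3]
    group
  let W : Subgroup L := zpowers w
  have hWH : W ≤ H := by
    rw [zpowers_le]
    exact (z ^ k : H).2
  have hWb : W ≠ ⊥ := by
    intro h
    exact hw1 (zpowers_eq_bot.mp h)
  have hWn : ∀ a ∈ H, ∀ x ∈ W, a⁻¹ * x * a ∈ W := by
    intro a ha x hx
    obtain ⟨j, rfl⟩ := Subgroup.mem_zpowers_iff.mp hx
    have : a⁻¹ * w ^ j * a = (a⁻¹ * w * a) ^ j := by
      have h1 := conj_zpow (a := a⁻¹) (b := w) (i := j)
      rw [inv_inv] at h1
      exact h1.symm
    rw [this, hwc a ha]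
    exact Subgroup.mem_zpowers_iff.mpr ⟨j, rfl⟩
  have hWp : IsPGroup q W := by
    apply IsPGroup.of_card (n := 1)
    rw [Nat.card_zpowers, pow_one]
    exact orderOf_eq_prime hwq hw1
  obtain ⟨V, hVN, hVb, hVc, hHV⟩ :=
    Cfsg.Agent.Lib.Frobenius.Invariant.exists_invariant_abelian_of_fpf hNb hHN hfpf hWH hWb hWn hWp
  have hfpfV : ∀ a ∈ H, a ≠ 1 → ∀ v ∈ V, a * v = v * a → v = 1 :=
    fun a ha ha1 v hv => hfpf a ha ha1 v (hVN hv)
  have hcop : (Nat.card H).Coprime (Nat.card V) :=
    Cfsg.Agent.Lib.Frobenius.Invariant.coprime_of_fpf hHV hfpfV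
  haveI : Nontrivial V := by rwa [Subgroup.nontrivial_iff_ne_bot]
  letI cK : CommGroup V :=
    { (inferInstance : Group V) with
      mul_comm := fun a b => mul_comm' a b }
  let act : H →* MulAut V := V.normalizerMonoidHom.comp (Subgroup.inclusion hHV)
  have hact : ∀ (g : H) (x : V), ((act g x : V) : L) = (g : L) * x * (g : L)⁻¹ := fun _ _ => rfl
  refine exists_matrix_rep_comm act ?_ hcop
  intro g hg x hx
  have h1 : (g : L) * x * (g : L)⁻¹ = x := by
    rw [← hact, hx]
  have h3 : (g : L) * x = x * g := by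
    calc (g : L) * x = ((g : L) * x * (g : L)⁻¹) * g := by group
      _ = x * g := by rw [h1]
  exact Subtype.ext (hfpfV g g.2 (fun h => hg (Subtype.ext h)) x x.2 h3)

end Rep

end Cfsg.Agent.Lib.Frobenius.FpfLift
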