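import Mathlib
import Cfsg.Agent.Lib.Frobenius.Construct

/-!
# Frobenius groups from matrix representations
-/

set_option autoImplicit false
set_option linter.style.haveILetI false

namespace Cfsg.Agent.Lib.Frobenius.MatrixRep

open Cfsg Cfsg.Agent.Lib.Frobenius.Construct

/-- A matrix representation such that no nonidentity element has eigenvalue one gives a Frobenius
complement. -/
theorem exists_frobenius_of_matrix {C : Type*} [Group C] [Finite C] [Nontrivial C] {F : Type*}
    [Field F] [Finite F] {n : ℕ} [NeZero n] (φ : C →* Matrix (Fin n) (Fin n) F)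
    (h : ∀ c : C, c ≠ 1 → (φ c - 1).det ≠ 0) :
    ∃ (L : Type) (_ : Group L) (_ : Finite L) (H : Subgroup L),
      IsFrobeniusComplement H ∧ Nonempty (H ≃* C) := by
  classical
  haveI : Nontrivial (Fin n → F) := Function.nontrivial
  let ρ : Representation F C (Fin n → F) :=
    { toFun := fun c => Matrix.toLin' (φ c)
      map_one' := by
        rw [map_one, Matrix.toLin'_one]
        rfl
      map_mul' := fun a b => by
        rw [map_mul, Matrix.toLin'_mul]
        rfl }
  obtain ⟨L, i1, i2, H, hF, ⟨e⟩⟩ := exists_frobenius_of_rep ρ (by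
    intro c hc v hv
    have h1 : (φ c).mulVec v = v := by
      have : Matrix.toLin' (φ c) v = v := hv
      rwa [Matrix.toLin'_apply] at this
    have h2 : (φ c - 1).mulVec v = 0 := by
      rw [Matrix.sub_mulVec, h1, Matrix.one_mulVec, sub_self]
    exact Matrix.eq_zero_of_mulVec_eq_zero (h c hc) h2)
  exact ⟨L, i1, i2, H, hF, ⟨e.symm⟩⟩

end Cfsg.Agent.Lib.Frobenius.MatrixRep
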